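import Cfsg.Agent.H314.Co3.E7Zero
import Cfsg.Agent.H314.Co3.Dim8

/-!
# S1920, case B, `E₇(q)`: `N0` does not act trivially on `sl₂` (helper314, for helper627)
-/

set_option autoImplicit false

open Subgroup Equiv Module

namespace Cfsg.Agent.H314.Co3.E7

open Cfsg.Agent.H13.Co3 Cfsg.Agent.H627.Co3

section

variable {G : Type*} [Group G] {F V : Type*} [Field F] [AddCommGroup V] [Module F V] {z s : G}
  {B : LinearMap.BilinForm F V} {P N0 : Subgroup G} {ψ : ↥(normalizer (P : Set G)) →* Equiv.Perm (Fin 6)}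

theorem mem_zs (C : CB P N0 z s ψ) {n : G} (hn : n ∈ zpowers s) (h1 : n * n = 1) : n = 1 ∨ n = z := by
  obtain ⟨k, rfl⟩ := mem_zpowers_iff.1 hn
  have hss : s ^ (2 : ℤ) = z := by rw [zpow_two, C.s_sq]
  have hzz : ∀ j : ℤ, z ^ (2 * j) = 1 := by
    intro j
    rw [zpow_mul, zpow_two, C.z_sq, one_zpow]
  have h2 : s ^ k * s ^ k = z ^ k := by rw [← zpow_add, ← two_mul, zpow_mul, hss]
  rw [h2] at h1
  rcases Int.even_or_odd k with ⟨j, hj⟩ | ⟨j, hj⟩
  · have h3 : s ^ k = z ^ j := by rw [hj, ← two_mul, zpow_mul, hss]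
    rw [h3]
    rcases Int.even_or_odd j with ⟨i, hi⟩ | ⟨i, hi⟩
    · left; rw [hi, ← two_mul, hzz]
    · right; rw [hi, zpow_add, hzz, one_mul, zpow_one]
  · exfalso
    rw [hj, zpow_add, hzz, one_mul, zpow_one] at h1
    exact C.z_ne h1

/-- there are two elements of `N0` that do not commute -/
theorem exists_nc (C : CB P N0 z s ψ) : ∃ n ∈ N0, ∃ m ∈ N0, n * m = z * (m * n) := by
  by_contra hcon
  push Not at hcon
  have h1 : N0 ≤ zpowers s := fun n hn => C.cen n hn fun m hm => (C.comm n hn m hm).resolve_right (hcon n hn m hm)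
  have h2 : s ^ 4 = 1 := by
    have : s ^ 4 = (s * s) * (s * s) := by simp only [pow_succ, pow_zero, one_mul, mul_assoc]
    rw [this, C.s_sq, C.z_sq]
  have hf : Finite (zpowers s) :=
    Set.Finite.to_subtype (finite_zpowers.2 (isOfFinOrder_iff_pow_eq_one.2 ⟨4, by norm_num, h2⟩))
  have h3 : Nat.card N0 ≤ Nat.card (zpowers s) := Subgroup.card_le_of_le h1
  have h4 : Nat.card (zpowers s) ≤ 4 := by
    rw [Nat.card_zpowers]
    exact orderOf_le_of_pow_eq_one (by norm_num) h2
  rw [C.card] at h3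
  omega

theorem smul_ne (I : E7I z F B) {g : G} {a : Matrix (Fin 2) (Fin 2) F} {M : End F V} (h : I.R g a M) {c : F}
    (hc : c • M = 0) : c = 0 := (smul_eq_zero.1 hc).resolve_right (ne_zero I h)

theorem mul_ne (I : E7I z F B) {g : G} {a : Matrix (Fin 2) (Fin 2) F} {M N : End F V} (h : I.R g a M) (hN : N ≠ 0) :
    M * N ≠ 0 := by
  intro h0
  apply hN
  ext u
  exact inj I h (by rw [← Module.End.mul_apply, h0, LinearMap.zero_apply])

theorem dist (I : E7I z F B) {M : End F V} (hM : M ≠ 0) (h : M = -M) : False := by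
  apply hM
  have h1 : (2 : F) • M = 0 := by
    rw [two_smul]
    nth_rewrite 2 [h]
    exact add_neg_cancel M
  exact (smul_eq_zero.1 h1).resolve_left I.two

/-- trace zero: the eigenspaces have dimension 6 -/
theorem dim_six (I : E7I z F B) {M N : End F V} {ν : F} (hν : ν ≠ 0) (hM : M * M = ν ^ 2 • 1)
    (hN : Function.Injective N) (h : M * N = -(N * M)) : finrank F (LinearMap.ker (M + ν • 1)) = 6 := by
  have := fd I
  have h1 := Cfsg.Agent.H314.Co3.half (K := F) I.two ((-ν⁻¹) • M) N hN ⊤ (fun _ _ => trivial) (fun _ _ => trivial)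
    (fun u _ => by
      have h2 : M (M u) = ν ^ 2 • u := by rw [← Module.End.mul_apply, hM]; rfl
      change (-ν⁻¹) • M ((-ν⁻¹) • M u) = u
      rw [map_smul, h2, smul_smul, smul_smul]
      have : -ν⁻¹ * -ν⁻¹ * ν ^ 2 = 1 := by field_simp
      rw [this, one_smul])
    (fun u _ => by
      have h2 : M (N u) = -(N (M u)) := by
        rw [← Module.End.mul_apply, h]; rfl
      change (-ν⁻¹) • M (N u) = -N ((-ν⁻¹) • M u)
      rw [h2, map_smul, smul_neg])
  rw [finrank_top, I.dim] at h1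
  have h2 : (⊤ : Submodule F V) ⊓ LinearMap.ker ((-ν⁻¹) • M - 1) = LinearMap.ker (M + ν • 1) := by
    rw [top_inf_eq]
    ext u
    rw [LinearMap.mem_ker, LinearMap.mem_ker]
    change (-ν⁻¹) • M u - u = 0 ↔ M u + ν • u = 0
    have h3 : M u + ν • u = (-ν) • ((-ν⁻¹) • M u - u) := by
      rw [smul_sub, smul_smul, neg_smul, sub_neg_eq_add]
      have : -ν * -ν⁻¹ = 1 := by field_simp
      rw [this, one_smul]
    rw [h3]
    constructor
    · intro h; rw [h, smul_zero]
    · intro h; exact (smul_eq_zero.1 h).resolve_left (neg_ne_zero.2 hν)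
  rw [h2] at h1
  omega

/-- elements with an anticommuting partner square to `z` -/
theorem sq_of_anti (I : E7I z F B) (C : CB P N0 z s ψ) {n m : G} (hn : n ∈ N0) {M N : End F V} {b : Matrix (Fin 2) (Fin 2) F}
    (h1 : I.R n 1 M) (h2 : I.R m b N) (h : M * N = -(N * M)) : n * n = z := by
  rcases C.sq n hn with h3 | h3
  · exfalso
    have hNM := mul_ne I h2 (ne_zero I h1)
    have hns : n ∉ zpowers s := by
      intro hns
      have hsc : ∃ c : F, M = c • 1 := by
        rcases mem_zs C hns h3 with h4 | h4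
        · rw [h4] at h1; exact (I.uniq (R_one I) h1).2
        · rw [h4] at h1; exact (I.uniq (Rz I) h1).2
      obtain ⟨c, hc⟩ := hsc
      rw [hc, smul_mul_assoc, mul_smul_comm, one_mul, mul_one] at h
      rw [hc, mul_smul_comm, mul_one] at hNM
      exact dist I hNM h
    obtain ⟨k, hk, hkn⟩ := conj_z C hn hns
    have hnz : z * n = n * z := (C.z_cen n (C.NH hn)).symm
    obtain ⟨ν, hν, h4, -, h5⟩ := I.t1 h1 h3 ⟨k, by rw [hkn, hnz]⟩
    have h6 := dim_six I hν h4 (N := N) (fun u v huv => by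
      have : N (u - v) = 0 := by rw [map_sub, huv, sub_self]
      exact sub_eq_zero.1 (inj I h2 this)) h
    omega
  · exact h3

/-- a skew-adjoint `M` -/
theorem sq_of_skew (I : E7I z F B) (C : CB P N0 z s ψ) {n : G} (hn : n ∈ N0) {M : End F V} (h1 : I.R n 1 M)
    (hiso : ∀ u v, B (M u) (M v) = B u v) (h : M * M = -1) : n * n = z := by
  rcases C.sq n hn with h3 | h3
  · exfalso
    have hsk : ∀ u v, B (M u) v = -B u (M v) := by
      intro u v
      have h4 : M (M v) = -v := by rw [← Module.End.mul_apply, h]; rfl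
      rw [← hiso u (M v), h4, map_neg, neg_neg]
    have := fd I
    have hV : Nontrivial V := Module.nontrivial_of_finrank_pos (R := F) (by rw [I.dim]; norm_num)
    have hns : n ∉ zpowers s := by
      intro hns
      have hsc : ∃ c : F, M = c • 1 := by
        rcases mem_zs C hns h3 with h4 | h4
        · rw [h4] at h1; exact (I.uniq (R_one I) h1).2
        · rw [h4] at h1; exact (I.uniq (Rz I) h1).2
      obtain ⟨c, hc⟩ := hsc
      obtain ⟨u, hu⟩ := exists_ne (0 : V)
      apply hu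
      refine I.nd u fun v => ?_
      have h4 := hsk u v
      rw [hc] at h4
      change B (c • u) v = -B u (c • v) at h4
      rw [map_smul, LinearMap.smul_apply, map_smul] at h4
      have h5 : (2 * c) * B u v = 0 := by
        simp only [smul_eq_mul] at h4
        linear_combination h4
      rcases mul_eq_zero.1 h5 with h6 | h6
      · exfalso
        rcases mul_eq_zero.1 h6 with h7 | h7
        · exact I.two h7
        · exact ne_zero I h1 (by rw [hc, h7, zero_smul])
      · exact h6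
    obtain ⟨k, hk, hkn⟩ := conj_z C hn hns
    have hnz : z * n = n * z := (C.z_cen n (C.NH hn)).symm
    obtain ⟨ν, hν, -, h5, -⟩ := I.t1 h1 h3 ⟨k, by rw [hkn, hnz]⟩
    obtain ⟨u, hu⟩ := exists_ne (0 : V)
    apply hu
    refine inj I h1 (I.nd _ fun v => ?_)
    have h6 := hsk v u
    rw [h5 v u] at h6
    have h7 : (2 : F) * B v (M u) = 0 := by linear_combination h6
    rw [I.symm]
    exact (mul_eq_zero.1 h7).resolve_left I.two
  · exact h3

/-- the square of an isometry proportional to an involution -/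
theorem sq_pm (I : E7I z F B) {g : G} {M : End F V} (h1 : I.R g 1 M) (hiso : ∀ u v, B (M u) (M v) = B u v)
    (h : g * g = 1 ∨ g * g = z) : M * M = 1 ∨ M * M = -1 := by
  have := fd I
  have hV : Nontrivial V := Module.nontrivial_of_finrank_pos (R := F) (by rw [I.dim]; norm_num)
  obtain ⟨-, d, hd⟩ := sq_data I h1 h
  have h2 : d * d = 1 := by
    by_contra hne
    obtain ⟨u, hu⟩ := exists_ne (0 : V)
    apply hu
    refine I.nd u fun v => ?_
    have h3 : ∀ w, M (M w) = d • w := fun w => by rw [← Module.End.mul_apply, hd]; rfl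
    have h4 := (hiso (M u) (M v)).trans (hiso u v)
    have e : B (d • u) (d • v) = d * (d * B u v) := by simp
    rw [h3, h3, e] at h4
    have h5 : (d * d - 1) * B u v = 0 := by linear_combination h4
    exact (mul_eq_zero.1 h5).resolve_left (sub_ne_zero.2 hne)
  rcases mul_self_eq_one_iff.1 h2 with h3 | h3
  · left; rw [hd, h3, one_smul]
  · right; rw [hd, h3, neg_smul, one_smul]

theorem pm_comm (I : E7I z F B) {g h : G} {a b : Matrix (Fin 2) (Fin 2) F} {M N : End F V} {k : F} (_h1 : I.R g a M)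
    (h2 : I.R h b N) (hk : k ≠ 0) (hM : M * M = k • 1) {d : F} (hd : N * M = d • (M * N)) :
    N * M = M * N ∨ N * M = -(M * N) := by
  have h3 : d * d = 1 := by
    have e1 : N * (M * M) = (d * d) • ((M * M) * N) := by
      rw [← mul_assoc, hd, smul_mul_assoc, mul_assoc, hd, mul_smul_comm, smul_smul, ← mul_assoc]
    rw [hM, mul_smul_comm, smul_mul_assoc, mul_one, one_mul, smul_comm] at e1
    have e2 : k • ((d * d - 1) • N) = 0 := by rw [sub_smul, one_smul, smul_sub, ← e1, sub_self]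
    have e3 := (smul_eq_zero.1 e2).resolve_left hk
    exact sub_eq_zero.1 (smul_ne I h2 e3)
  rcases mul_self_eq_one_iff.1 h3 with h4 | h4
  · left; rw [hd, h4, one_smul]
  · right; rw [hd, h4, neg_smul, one_smul]

end

section

variable {G : Type*} [Group G] {F V : Type*} [Field F] [AddCommGroup V] [Module F V] {z s : G}
  {B : LinearMap.BilinForm F V} {P N0 : Subgroup G} {ψ : ↥(normalizer (P : Set G)) →* Equiv.Perm (Fin 6)}

/-- the matrix of order 4 -/
def J (F : Type*) [Field F] : Matrix.SpecialLinearGroup (Fin 2) F := ⟨!![0, 1; -1, 0], by simp [Matrix.det_fin_two]⟩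

theorem J_sq (F : Type*) [Field F] : J F * J F = -1 := by
  apply Subtype.ext
  rw [Matrix.SpecialLinearGroup.coe_mul, Matrix.SpecialLinearGroup.coe_neg, Matrix.SpecialLinearGroup.coe_one]
  ext i j
  fin_cases i <;> fin_cases j <;> simp [J, Matrix.mul_apply, Fin.sum_univ_two]

/-- **Case (i)**, first part: 2-elements of `A` acting trivially on `sl₂` are in `N0` -/
theorem one_kill [Finite G] (I : E7I z F B) (C : CB P N0 z s ψ)
    (h : ∀ n ∈ N0, ∀ a M, I.R n a M → ∃ c : F, a = c • 1) {g : G} (hg : g ∈ AA C) (h2 : ∃ k, g ^ 2 ^ k = 1)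
    {M : End F V} (hM : I.R g 1 M) : g ∈ N0 := by
  have hA : ∀ x, I.ι x ∈ AA C := by
    intro x
    rw [mem_AA, Cfsg.Agent.H738.C3.act_iff C]
    intro n hn
    obtain ⟨a, M, hM⟩ := I.ex n (C.z_cen n (C.NH hn))
    obtain ⟨c, rfl⟩ := h n hn a M hM
    exact comm_or I (c := 1) (d := 1) (I.Rι x) hM (by rw [smul_mul_assoc, one_mul, mul_smul_comm, mul_one, one_smul])
      (by rw [mul_one, one_mul, one_smul])
  set D : Subgroup (Perm (Fin 6)) := (I.ι.range.subgroupOf (AA C)).map (psi C) with hD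
  have hn : ∀ a ∈ alternatingGroup (Fin 6), ∀ d ∈ D, a * d * a⁻¹ ∈ D := by
    rintro a ha _ ⟨g, ⟨x, hx⟩, rfl⟩
    obtain ⟨h, hhA, hhN, rfl⟩ := exists_even C (Perm.mem_alternatingGroup.1 ha)
    obtain ⟨b, N, hN⟩ := I.ex h (hhN z (C.PN C.zP))
    obtain ⟨N', e1, -, hN'⟩ := R_inv I hN
    have h3 := I.mul (I.mul hN (I.Rι x)) hN'
    rw [mul_one, e1] at h3
    have hb := I.det hN
    have hu := isUnit_iff_ne_zero.2 hb
    let y : Matrix.SpecialLinearGroup (Fin 2) F := ⟨b * x * b⁻¹, by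
      rw [Matrix.det_mul, Matrix.det_mul, Matrix.SpecialLinearGroup.det_coe, mul_one, ← Matrix.det_mul,
        Matrix.mul_nonsing_inv _ hu, Matrix.det_one]⟩
    have h4 : h * I.ι x * h⁻¹ ∈ I.ι.range := by
      rcases eq_or I (c := 1) (d := 1) h3 (I.Rι y) (by rw [one_smul]) (by rw [one_smul]) with h5 | h5
      · exact ⟨y, h5.symm⟩
      · exact ⟨(-1) * y, by rw [map_mul, I.ι_neg, h5]⟩
    refine ⟨⟨h, hhA⟩ * g * ⟨h, hhA⟩⁻¹, ?_, by rw [map_mul, map_mul, map_inv]⟩
    change h * (g : G) * h⁻¹ ∈ I.ι.range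
    have h5 : (g : G) = I.ι x := hx.symm
    rw [h5]; exact h4
  rcases dich6 D hn with h3 | h3
  · exfalso
    have h4 : I.ι (J F) ∈ N0 := by
      refine mem_N0_of_psi C (hA (J F)) ⟨2, ?_⟩ (h3 _ ⟨⟨I.ι (J F), hA _⟩, ⟨J F, rfl⟩, rfl⟩)
      have e : J F ^ 4 = (J F * J F) * (J F * J F) := by simp only [pow_succ, pow_zero, one_mul, mul_assoc]
      rw [show 2 ^ 2 = 4 by norm_num, ← map_pow, e, J_sq, neg_mul_neg, one_mul, map_one]
    obtain ⟨c, hc⟩ := h _ h4 _ _ (I.Rι _)
    have := congrFun (congrFun hc 0) 1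
    simp [J] at this
  · refine mem_N0 C hg h2 (K := (I.ι.range : Set G)) (fun π hπ => ?_) ?_
    · obtain ⟨k, hk, hk2⟩ := h3 (Perm.mem_alternatingGroup.2 hπ)
      exact ⟨k, k.2, hk, hk2⟩
    · rintro _ ⟨x, rfl⟩
      exact comm_or I (c := 1) (d := 1) hM (I.Rι x) (by rw [mul_one, one_mul, one_smul])
        (by rw [mul_one, one_mul, one_smul])

/-- **Case (i)** -/
theorem case_one [Finite G] [Finite F] (I : E7I z F B) (C : CB P N0 z s ψ)
    (h : ∀ n ∈ N0, ∀ a M, I.R n a M → ∃ c : F, a = c • 1) : False := by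
  have hD : ∀ n ∈ N0, ∃ M, M ∈ I.Om ∧ I.R n 1 M := by
    intro n hn
    obtain ⟨a, M, hM⟩ := I.ex n (C.z_cen n (C.NH hn))
    obtain ⟨c, hc⟩ := h n hn a M hM
    have hc0 : c ≠ 0 := by
      rintro rfl
      have := I.det hM
      rw [hc, zero_smul] at this
      simp at this
    have h1 := I.scal hM (inv_ne_zero hc0) one_ne_zero
    rw [hc, smul_smul, inv_mul_cancel₀ hc0, one_smul, one_smul] at h1
    obtain ⟨d, hd, hdM⟩ := I.omT h1
    have h2 := I.scal h1 one_ne_zero hd
    rw [one_smul] at h2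
    exact ⟨_, hdM, h2⟩
  have hsq : ∀ {n : G}, n ∈ N0 → ∀ {M : End F V}, M ∈ I.Om → I.R n 1 M → M * M = 1 ∨ M * M = -1 := by
    intro n hn M hM hR
    exact sq_pm I hR (I.om_iso hM) (C.sq n hn)
  have hpm : ∀ {n m : G}, n ∈ N0 → m ∈ N0 → ∀ {M N : End F V}, M ∈ I.Om → N ∈ I.Om → I.R n 1 M → I.R m 1 N →
      N * M = M * N ∨ N * M = -(M * N) := by
    intro n m hn hm M N hM hN hRM hRN
    obtain ⟨-, d, hd⟩ := comm_data I hRM hRN (C.comm n hn m hm)
    rcases hsq hn hM hRM with h1 | h1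
    · exact pm_comm I hRM hRN one_ne_zero (by rw [h1, one_smul]) hd
    · exact pm_comm I hRM hRN (neg_ne_zero.2 one_ne_zero) (by rw [h1, neg_smul, one_smul]) hd
  obtain ⟨S, hS, hRS⟩ := hD s C.sN
  have hns : ∀ {n : G}, n ∈ N0 → (n * s) * (n * s) = (n * n) * z := by
    intro n hn
    rw [← C.s_sq, mul_assoc n s, ← mul_assoc s n, ← C.s_cen n hn]
    simp only [mul_assoc]
  -- everything commutes
  have hcomm : ∀ {n m : G}, n ∈ N0 → m ∈ N0 → ∀ {M N : End F V}, M ∈ I.Om → N ∈ I.Om → I.R n 1 M → I.R m 1 N →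
      N * M = M * N := by
    intro n m hn hm M N hM hN hRM hRN
    rcases hpm hn hm hM hN hRM hRN with h1 | h1
    · exact h1
    exfalso
    have q1 : n * n = z := sq_of_anti I C hn hRM hRN (by rw [h1, neg_neg])
    have q2 : m * m = z := sq_of_anti I C hm hRN hRM h1
    rcases hpm C.sN hm hS hN hRS hRN with h2 | h2
    · have h3 := I.mul hRM hRS
      rw [one_mul] at h3
      have q3 := sq_of_anti I C (mul_mem hn C.sN) h3 hRN (by
        rw [mul_assoc, ← h2, ← mul_assoc, ← mul_assoc, h1, neg_mul, neg_neg])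
      rw [hns hn, q1, C.z_sq] at q3
      exact C.z_ne q3.symm
    · have h3 := I.mul hRN hRS
      rw [one_mul] at h3
      have q3 := sq_of_anti I C (mul_mem hm C.sN) h3 hRN (by
        have h4 : S * N = -(N * S) := by rw [h2, neg_neg]
        rw [mul_assoc, h4, mul_neg])
      rw [hns hm, q2, C.z_sq] at q3
      exact C.z_ne q3.symm
  have hiso : ∀ {M N : End F V}, M ∈ I.Om → N ∈ I.Om → ∀ u v, B ((M * N) u) ((M * N) v) = B u v := by
    intro M N hM hN u v
    rw [Module.End.mul_apply, Module.End.mul_apply, I.om_iso hM, I.om_iso hN]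
  have hmm : ∀ {M N : End F V}, N * M = M * N → (M * N) * (M * N) = (M * M) * (N * N) := by
    intro M N h1
    rw [mul_assoc, ← mul_assoc N, h1]
    simp only [mul_assoc]
  -- all squares are 1
  have hone : ∀ {n : G}, n ∈ N0 → ∀ {M : End F V}, M ∈ I.Om → I.R n 1 M → M * M = 1 := by
    intro n hn M hM hR
    rcases hsq hn hM hR with h1 | h1
    · exact h1
    exfalso
    have q1 := sq_of_skew I C hn hR (I.om_iso hM) h1
    have hSS : S * S = -1 := by
      rcases hsq C.sN hS hRS with h2 | h2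
      · exfalso
        have h3 := I.mul hR hRS
        rw [one_mul] at h3
        have q2 := sq_of_skew I C (mul_mem hn C.sN) h3 (hiso hM hS) (by
          rw [hmm (hcomm hn C.sN hM hS hR hRS), h1, h2, mul_one])
        rw [hns hn, q1, C.z_sq] at q2
        exact C.z_ne q2.symm
      · exact h2
    -- `n ^ 2 = 1` iff `M_n ^ 2 = 1`
    have hiff : ∀ {m : G}, m ∈ N0 → ∀ {N : End F V}, N ∈ I.Om → I.R m 1 N → N * N = 1 → m * m = 1 := by
      intro m hm N hN hRN h3
      have h4 := I.mul hRN hRS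
      rw [one_mul] at h4
      have q2 := sq_of_skew I C (mul_mem hm C.sN) h4 (hiso hN hS) (by
        rw [hmm (hcomm hm C.sN hN hS hRN hRS), h3, hSS, one_mul])
      rw [hns hm] at q2
      exact mul_right_cancel (b := z) (by rw [q2, one_mul])
    obtain ⟨x, hx, y, hy, hxy⟩ := exists_nc C
    obtain ⟨X, hX, hRX⟩ := hD x hx
    obtain ⟨Y, hY, hRY⟩ := hD y hy
    have e1 : (x * y) * (x * y) = z * ((x * x) * (y * y)) := by
      have hz : z * y = y * z := (C.z_cen y (C.NH hy)).symm
      have hz' : z * x = x * z := (C.z_cen x (C.NH hx)).symm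
      have h5 : y * x = z * (x * y) := by rw [hxy, ← mul_assoc, C.z_sq, one_mul]
      calc (x * y) * (x * y) = x * (y * x) * y := by simp only [mul_assoc]
        _ = x * (z * (x * y)) * y := by rw [h5]
        _ = (x * z) * ((x * y) * y) := by simp only [mul_assoc]
        _ = z * ((x * x) * (y * y)) := by rw [← hz']; simp only [mul_assoc]
    have h3 := I.mul hRX hRY
    rw [one_mul] at h3
    have e2 := hmm (hcomm hx hy hX hY hRX hRY)
    -- `X Y` up to a scalar in `Om`
    obtain ⟨W, hW, hRW⟩ := hD (x * y) (mul_mem hx hy)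
    obtain ⟨-, d, hd⟩ := I.uniq hRW h3
    have hdd : d * d = 1 := by
      have := fd I
      have hV : Nontrivial V := Module.nontrivial_of_finrank_pos (R := F) (by rw [I.dim]; norm_num)
      by_contra hne
      obtain ⟨u, hu⟩ := exists_ne (0 : V)
      apply hu
      refine I.nd u fun v => ?_
      have h4 := hiso hX hY u v
      rw [hd] at h4
      change B (d • W u) (d • W v) = B u v at h4
      have e : B (d • W u) (d • W v) = d * (d * B (W u) (W v)) := by simp
      rw [e, I.om_iso hW] at h4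
      have h5 : (d * d - 1) * B u v = 0 := by linear_combination h4
      exact (mul_eq_zero.1 h5).resolve_left (sub_ne_zero.2 hne)
    have hWW : W * W = (X * X) * (Y * Y) := by
      rw [← e2, hd, smul_mul_assoc, mul_smul_comm, smul_smul, hdd, one_smul]
    have hsk : ∀ {m : G}, m ∈ N0 → ∀ {N : End F V}, N ∈ I.Om → I.R m 1 N → N * N = -1 → m * m = z :=
      fun {m} hm {N} hN hRN h3 => sq_of_skew I C hm hRN (I.om_iso hN) h3
    rcases hsq hx hX hRX with hx1 | hx1 <;> rcases hsq hy hY hRY with hy1 | hy1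
    · rw [hx1, hy1, one_mul] at hWW
      have q := hiff (mul_mem hx hy) hW hRW hWW
      rw [e1, hiff hx hX hRX hx1, hiff hy hY hRY hy1, one_mul, mul_one] at q
      exact C.z_ne q
    · rw [hx1, hy1, one_mul] at hWW
      have q := hsk (mul_mem hx hy) hW hRW hWW
      rw [e1, hiff hx hX hRX hx1, hsk hy hY hRY hy1, one_mul, C.z_sq] at q
      exact C.z_ne q.symm
    · rw [hx1, hy1, mul_one] at hWW
      have q := hsk (mul_mem hx hy) hW hRW hWW
      rw [e1, hsk hx hX hRX hx1, hiff hy hY hRY hy1, mul_one, C.z_sq] at q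
      exact C.z_ne q.symm
    · rw [hx1, hy1, neg_mul_neg, one_mul] at hWW
      have q := hiff (mul_mem hx hy) hW hRW hWW
      rw [e1, hsk hx hX hRX hx1, hsk hy hY hRY hy1, C.z_sq, mul_one] at q
      exact C.z_ne q
  -- the sign group
  obtain ⟨W, hW2, hWc, -, hWN⟩ := Cfsg.Agent.H898.Co3.t0_E7 I C.z_ne {M | M ∈ I.Om ∧ ∃ n ∈ N0, I.R n 1 M}
    (by
      rintro M ⟨hM, n, hn, hRM⟩ N ⟨hN, m, hm, hRN⟩
      exact (hcomm hn hm hM hN hRM hRN).symm)
    (by
      rintro M ⟨hM, n, hn, hRM⟩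
      have h1 := hone hn hM hRM
      refine ⟨fun u v => ?_, 1, one_ne_zero, by rw [h1, one_pow, one_smul]⟩
      have h4 : M (M v) = v := by rw [← Module.End.mul_apply, h1]; rfl
      rw [← I.om_iso hM u (M v), h4])
  have hWle : W ≤ N0 := by
    intro w hw
    obtain ⟨N, hN, hRN, hNN, hNc⟩ := hWN w hw
    have hwA : w ∈ AA C := by
      rw [mem_AA, Cfsg.Agent.H738.C3.act_iff C]
      intro n hn
      obtain ⟨M, hM, hRM⟩ := hD n hn
      exact comm_or I (c := 1) (d := 1) hRN hRM (by rw [one_smul]) (by rw [one_smul]; exact (hNc M ⟨hM, n, hn, hRM⟩).symm)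
    obtain ⟨k, hk⟩ := hW2 ⟨w, hw⟩
    exact one_kill I C h hwA ⟨k, congrArg Subtype.val hk⟩ hRN
  have h1 : Nat.card W ≤ Nat.card N0 := Subgroup.card_le_of_le hWle
  rw [C.card] at h1
  omega

end

end Cfsg.Agent.H314.Co3.E7
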