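import Cfsg.Agent.H13.Co3.Tools
import Cfsg.Agent.H898.Co3.TZero7

/-!
# S1920, case B, `E₇(q)`: the action on `sl₂` (helper314, for helper627)

* `eq_or`, `comm_or` : elements with proportional data are equal modulo `z`;
* `even0` : if some `n ∈ N0` acts nontrivially on `sl₂` then `A₆` is induced by elements of `C_G(N0)` acting trivially on `sl₂`;
* `a0_kill`, `iota_mem` : 2-elements commuting with these are in `N0`.
-/

set_option autoImplicit false

open Subgroup Equiv Module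

namespace Cfsg.Agent.H314.Co3.E7

open Cfsg.Agent.H13.Co3 Cfsg.Agent.H627.Co3

/-! ### matrices -/

section mat

variable {F : Type*} [Field F]

local notation "M2" => Matrix (Fin 2) (Fin 2) F

/-- the matrices commuting with a nonscalar matrix -/
theorem comm_nonscalar {a b : M2} (ha : ¬ ∃ c : F, a = c • 1) (h : b * a = a * b) : ∃ x y : F, b = x • 1 + y • a := by
  have e00 := congrFun (congrFun h 0) 0
  have e01 := congrFun (congrFun h 0) 1
  have e10 := congrFun (congrFun h 1) 0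
  have e11 := congrFun (congrFun h 1) 1
  simp only [Matrix.mul_apply, Fin.sum_univ_two] at e00 e01 e10 e11
  by_cases h01 : a 0 1 = 0
  · by_cases h10 : a 1 0 = 0
    · have hne : a 0 0 - a 1 1 ≠ 0 := by
        intro h0
        apply ha
        refine ⟨a 0 0, ?_⟩
        ext i j
        fin_cases i <;> fin_cases j <;> simp [h01, h10]
        exact (sub_eq_zero.1 h0).symm
      have b01 : b 0 1 = 0 := by
        have : b 0 1 * (a 0 0 - a 1 1) = 0 := by rw [h01] at e01; linear_combination -e01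
        exact (mul_eq_zero.1 this).resolve_right hne
      have b10 : b 1 0 = 0 := by
        have : b 1 0 * (a 0 0 - a 1 1) = 0 := by rw [h10] at e10; linear_combination e10
        exact (mul_eq_zero.1 this).resolve_right hne
      refine ⟨b 0 0 - (b 0 0 - b 1 1) / (a 0 0 - a 1 1) * a 0 0, (b 0 0 - b 1 1) / (a 0 0 - a 1 1), ?_⟩
      ext i j
      fin_cases i <;> fin_cases j <;> simp [h01, h10, b01, b10]
      field_simp
      ring
    · refine ⟨b 0 0 - b 1 0 / a 1 0 * a 0 0, b 1 0 / a 1 0, ?_⟩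
      ext i j
      fin_cases i <;> fin_cases j <;> simp [h01]
      · rw [h01] at e00
        have : b 0 1 * a 1 0 = 0 := by linear_combination e00
        exact (mul_eq_zero.1 this).resolve_right h10
      · field_simp
      · field_simp
        linear_combination e10
  · refine ⟨b 0 0 - b 0 1 / a 0 1 * a 0 0, b 0 1 / a 0 1, ?_⟩
    ext i j
    fin_cases i <;> fin_cases j <;> simp
    · field_simp
    · field_simp
      linear_combination -e00
    · field_simp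
      linear_combination -e01

theorem comm_comm {a b c : M2} (ha : ¬ ∃ c : F, a = c • 1) (hb : b * a = a * b) (hc : c * a = a * c) : b * c = c * b := by
  obtain ⟨x, y, rfl⟩ := comm_nonscalar ha hb
  rw [add_mul, mul_add, smul_mul_assoc, mul_smul_comm, one_mul, mul_one, smul_mul_assoc, mul_smul_comm, hc]

theorem smul_one_ne {a : M2} (ha : a.det ≠ 0) : a ≠ 0 := by
  rintro rfl
  simp at ha

/-- the commutation constant is a sign -/
theorem const_sq {a b : M2} {c l : F} (ha : a.det ≠ 0) (hb : b.det ≠ 0) (h : b * a = c • (a * b)) (hl : a * a = l • 1) :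
    c * c = 1 := by
  have hl0 : l ≠ 0 := by
    rintro rfl
    rw [zero_smul] at hl
    have := congrArg Matrix.det hl
    rw [Matrix.det_mul] at this
    simp [ha] at this
  have h1 : b * (a * a) = (c * c) • ((a * a) * b) := by
    rw [← mul_assoc, h, smul_mul_assoc, mul_assoc, h, mul_smul_comm, smul_smul, ← mul_assoc]
  rw [hl, mul_smul_comm, smul_mul_assoc, mul_one, one_mul, smul_comm] at h1
  have h2 : l • ((c * c - 1) • b) = 0 := by rw [sub_smul, one_smul, smul_sub, ← h1, sub_self]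
  rcases smul_eq_zero.1 h2 with h3 | h3
  · exact absurd h3 hl0
  · rcases smul_eq_zero.1 h3 with h4 | h4
    · exact sub_eq_zero.1 h4
    · exact absurd h4 (smul_one_ne hb)

/-- a nonscalar matrix with scalar square has trace zero -/
theorem trace_zero {a : M2} {l : F} (ha : ¬ ∃ c : F, a = c • 1) (hl : a * a = l • 1) : a 0 0 + a 1 1 = 0 := by
  have e00 := congrFun (congrFun hl 0) 0
  have e01 := congrFun (congrFun hl 0) 1
  have e10 := congrFun (congrFun hl 1) 0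
  have e11 := congrFun (congrFun hl 1) 1
  simp [Matrix.mul_apply, Fin.sum_univ_two] at e00 e01 e10 e11
  by_contra h0
  have h1 : a 0 1 = 0 := by
    have : a 0 1 * (a 0 0 + a 1 1) = 0 := by linear_combination e01
    exact (mul_eq_zero.1 this).resolve_right h0
  have h2 : a 1 0 = 0 := by
    have : a 1 0 * (a 0 0 + a 1 1) = 0 := by linear_combination e10
    exact (mul_eq_zero.1 this).resolve_right h0
  have h3 : a 0 0 = a 1 1 := by
    have : (a 0 0 - a 1 1) * (a 0 0 + a 1 1) = 0 := by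
      rw [h1] at e00 e11
      linear_combination e00 - e11
    exact sub_eq_zero.1 ((mul_eq_zero.1 this).resolve_right h0)
  apply ha
  refine ⟨a 0 0, ?_⟩
  ext i j
  fin_cases i <;> fin_cases j <;> simp [h1, h2, h3]

end mat

/-! ### the relation `R` -/

section rel

variable {G : Type*} [Group G] {F V : Type*} [Field F] [AddCommGroup V] [Module F V] {z : G}
  {B : LinearMap.BilinForm F V}

theorem fd (I : E7I z F B) : FiniteDimensional F V := Module.finite_of_finrank_pos (by rw [I.dim]; norm_num)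

theorem R_one (I : E7I z F B) : I.R 1 1 1 := by
  have h := I.Rι 1
  rwa [map_one, Matrix.SpecialLinearGroup.coe_one] at h

theorem Rz (I : E7I z F B) : I.R z 1 1 := Cfsg.Agent.H898.Co3.Rz I

theorem inj (I : E7I z F B) {g : G} {a : Matrix (Fin 2) (Fin 2) F} {M : End F V} (h : I.R g a M) {u : V}
    (hu : M u = 0) : u = 0 := by
  obtain ⟨μ, hμ, h1, -⟩ := I.sim h
  refine I.nd u fun v => ?_
  have h2 := h1 u v
  rw [hu, map_zero, LinearMap.zero_apply] at h2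
  exact (mul_eq_zero.1 h2.symm).resolve_left hμ

theorem ne_zero (I : E7I z F B) {g : G} {a : Matrix (Fin 2) (Fin 2) F} {M : End F V} (h : I.R g a M) : M ≠ 0 := by
  have := fd I
  intro h0
  have h1 : Nontrivial V := Module.nontrivial_of_finrank_pos (R := F) (by rw [I.dim]; norm_num)
  obtain ⟨u, hu⟩ := exists_ne (0 : V)
  exact hu (inj I h (by rw [h0, LinearMap.zero_apply]))

theorem R_inv (I : E7I z F B) {g : G} {a : Matrix (Fin 2) (Fin 2) F} {M : End F V} (h : I.R g a M) :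
    ∃ M', M * M' = 1 ∧ M' * M = 1 ∧ I.R g⁻¹ a⁻¹ M' := by
  have := fd I
  have hz := I.cz h
  obtain ⟨a1, M1, h1⟩ := I.ex g⁻¹ (by
    calc g⁻¹ * z = g⁻¹ * (z * g) * g⁻¹ := by group
      _ = z * g⁻¹ := by rw [← hz]; group)
  have h2 := I.mul h h1
  rw [mul_inv_cancel] at h2
  obtain ⟨⟨c, hc⟩, ⟨d, hd⟩⟩ := I.uniq (R_one I) h2
  have ha := I.det h
  have ha1 := I.det h1
  have hc0 : c ≠ 0 := by
    rintro rfl
    rw [zero_smul] at hc
    have := congrArg Matrix.det hc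
    rw [Matrix.det_mul] at this
    simp [ha, ha1] at this
  have hd0 : d ≠ 0 := by
    rintro rfl
    rw [zero_smul] at hd
    apply ne_zero I h1
    ext u
    exact inj I h (by rw [← Module.End.mul_apply, hd, LinearMap.zero_apply])
  have e1 : a * (c⁻¹ • a1) = 1 := by rw [mul_smul_comm, hc, smul_smul, inv_mul_cancel₀ hc0, one_smul]
  have e2 : M * (d⁻¹ • M1) = 1 := by rw [mul_smul_comm, hd, smul_smul, inv_mul_cancel₀ hd0, one_smul]
  refine ⟨d⁻¹ • M1, e2, mul_eq_one_comm.1 e2, ?_⟩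
  rw [Matrix.inv_eq_right_inv e1]
  exact I.scal h1 (inv_ne_zero hc0) (inv_ne_zero hd0)

/-- proportional data -/
theorem eq_or (I : E7I z F B) {x y : G} {a b : Matrix (Fin 2) (Fin 2) F} {M N : End F V} {c d : F} (hx : I.R x a M)
    (hy : I.R y b N) (h1 : b = c • a) (h2 : N = d • M) : x = y ∨ x = z * y := by
  obtain ⟨N', e1, e2, h3⟩ := R_inv I hy
  have h4 := I.mul hx h3
  have hb := I.det hy
  have hc0 : c ≠ 0 := by
    rintro rfl
    rw [h1, zero_smul] at hb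
    simp at hb
  have hd0 : d ≠ 0 := by
    rintro rfl
    rw [zero_smul] at h2
    exact ne_zero I hy h2
  have h5 := I.scal h4 hc0 hd0
  rw [← smul_mul_assoc, ← smul_mul_assoc, ← h1, ← h2, e1, Matrix.mul_nonsing_inv _ (isUnit_iff_ne_zero.2 hb)] at h5
  rcases I.ker h5 with h | h
  · exact Or.inl (mul_inv_eq_one.1 h)
  · exact Or.inr (mul_inv_eq_iff_eq_mul.1 h)

theorem comm_or (I : E7I z F B) {g h : G} {a b : Matrix (Fin 2) (Fin 2) F} {M N : End F V} {c d : F} (hg : I.R g a M)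
    (hh : I.R h b N) (h1 : b * a = c • (a * b)) (h2 : N * M = d • (M * N)) : g * h = h * g ∨ g * h = z * (h * g) :=
  eq_or I (I.mul hg hh) (I.mul hh hg) h1 h2

theorem comm_data (I : E7I z F B) {g h : G} {a b : Matrix (Fin 2) (Fin 2) F} {M N : End F V} (hg : I.R g a M)
    (hh : I.R h b N) (h1 : g * h = h * g ∨ g * h = z * (h * g)) :
    (∃ c : F, b * a = c • (a * b)) ∧ ∃ d : F, N * M = d • (M * N) := by
  have h2 := I.mul hg hh
  have h3 := I.mul hh hg
  rcases h1 with h | h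
  · rw [h] at h2
    exact I.uniq h2 h3
  · have h4 := I.mul (Rz I) h3
    rw [one_mul, one_mul] at h4
    rw [h] at h2
    exact I.uniq h2 h4

theorem sq_data (I : E7I z F B) {g : G} {a : Matrix (Fin 2) (Fin 2) F} {M : End F V} (hg : I.R g a M)
    (h : g * g = 1 ∨ g * g = z) : (∃ c : F, a * a = c • 1) ∧ ∃ d : F, M * M = d • 1 := by
  have h2 := I.mul hg hg
  rcases h with h | h
  · rw [h] at h2
    exact I.uniq (R_one I) h2
  · rw [h] at h2
    exact I.uniq (Rz I) h2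

theorem R_conj (I : E7I z F B) {g h : G} {a b : Matrix (Fin 2) (Fin 2) F} {M N : End F V} (hg : I.R g a M)
    (hh : I.R h b N) : ∃ L, I.R (g * h * g⁻¹) (a * b * a⁻¹) L := by
  obtain ⟨M', -, -, h1⟩ := R_inv I hg
  exact ⟨_, I.mul (I.mul hg hh) h1⟩

theorem R_comm (I : E7I z F B) {g h : G} {a b : Matrix (Fin 2) (Fin 2) F} {M N : End F V} (hg : I.R g a M)
    (hh : I.R h b N) : ∃ L, I.R (g * h * g⁻¹ * h⁻¹) (a * b * a⁻¹ * b⁻¹) L := by
  obtain ⟨L, hL⟩ := R_conj I hg hh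
  obtain ⟨N', -, -, h1⟩ := R_inv I hh
  exact ⟨_, I.mul hL h1⟩

theorem cm_mul {a b x : Matrix (Fin 2) (Fin 2) F} {c d : F} (h1 : a * x = c • (x * a)) (h2 : b * x = d • (x * b)) :
    (a * b) * x = (c * d) • (x * (a * b)) := by
  rw [mul_assoc, h2, mul_smul_comm, ← mul_assoc, h1, smul_mul_assoc, smul_smul, mul_assoc, mul_comm d]

theorem cm_inv {a x : Matrix (Fin 2) (Fin 2) F} {c : F} (ha : a.det ≠ 0) (hc : c ≠ 0) (h1 : a * x = c • (x * a)) :
    a⁻¹ * x = c⁻¹ • (x * a⁻¹) := by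
  have hu := isUnit_iff_ne_zero.2 ha
  have h2 : x * a = c⁻¹ • (a * x) := by rw [h1, smul_smul, inv_mul_cancel₀ hc, one_smul]
  calc a⁻¹ * x = a⁻¹ * (x * a) * a⁻¹ := by rw [mul_assoc, mul_assoc, Matrix.mul_nonsing_inv _ hu, mul_one]
    _ = c⁻¹ • (a⁻¹ * a * x * a⁻¹) := by rw [h2, mul_smul_comm, smul_mul_assoc, mul_assoc a⁻¹ a x]
    _ = c⁻¹ • (x * a⁻¹) := by rw [Matrix.nonsing_inv_mul _ hu, one_mul]

theorem const_ne {a x : Matrix (Fin 2) (Fin 2) F} {c : F} (ha : a.det ≠ 0) (hx : x.det ≠ 0) (h1 : a * x = c • (x * a)) :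
    c ≠ 0 := by
  rintro rfl
  rw [zero_smul] at h1
  have := congrArg Matrix.det h1
  rw [Matrix.det_mul] at this
  simp [ha, hx] at this

/-- the commutator commutes with `x` -/
theorem cm_comm {a b x : Matrix (Fin 2) (Fin 2) F} {c d : F} (ha : a.det ≠ 0) (hb : b.det ≠ 0) (hx : x.det ≠ 0)
    (h1 : a * x = c • (x * a)) (h2 : b * x = d • (x * b)) : (a * b * a⁻¹ * b⁻¹) * x = x * (a * b * a⁻¹ * b⁻¹) := by
  have hc := const_ne ha hx h1
  have hd := const_ne hb hx h2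
  have h3 := cm_mul (cm_mul (cm_mul h1 h2) (cm_inv ha hc h1)) (cm_inv hb hd h2)
  have e : c * d * c⁻¹ * d⁻¹ = 1 := by field_simp
  rw [e, one_smul] at h3
  exact h3

end rel

/-! ### the group -/

theorem dich6 (D : Subgroup (Perm (Fin 6))) (hn : ∀ a ∈ alternatingGroup (Fin 6), ∀ d ∈ D, a * d * a⁻¹ ∈ D) :
    (∀ d ∈ D, d = 1) ∨ alternatingGroup (Fin 6) ≤ D := by
  have h6 : IsSimpleGroup (alternatingGroup (Fin 6)) := alternatingGroup.isSimpleGroup (by simp)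
  have hN : (D.subgroupOf (alternatingGroup (Fin 6))).Normal := by
    constructor
    intro d hd a
    exact hn a a.2 d hd
  rcases hN.eq_bot_or_eq_top with h | h
  · left
    have hDA : ∀ d ∈ D, d ∈ alternatingGroup (Fin 6) → d = 1 := by
      intro d hd hdA
      have h1 : (⟨d, hdA⟩ : alternatingGroup (Fin 6)) ∈ D.subgroupOf (alternatingGroup (Fin 6)) := hd
      rw [h, mem_bot] at h1
      exact congrArg Subtype.val h1
    intro d hd
    apply Cfsg.Agent.H738.C3.cent_alt_six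
    intro a ha
    have h1 : a * d * a⁻¹ * d⁻¹ ∈ D := mul_mem (hn a ha d hd) (inv_mem hd)
    have h2 : a * d * a⁻¹ * d⁻¹ ∈ alternatingGroup (Fin 6) := by
      have h3 : d * a⁻¹ * d⁻¹ ∈ alternatingGroup (Fin 6) :=
        (inferInstance : (alternatingGroup (Fin 6)).Normal).conj_mem _ (inv_mem ha) d
      have e : a * d * a⁻¹ * d⁻¹ = a * (d * a⁻¹ * d⁻¹) := by group
      rw [e]
      exact mul_mem ha h3
    have h4 := hDA _ h1 h2
    rw [mul_inv_eq_one, mul_inv_eq_iff_eq_mul] at h4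
    exact h4
  · exact Or.inr (subgroupOf_eq_top.1 h)

section cb

variable {G : Type*} [Group G] {F V : Type*} [Field F] [AddCommGroup V] [Module F V] {z s : G}
  {B : LinearMap.BilinForm F V} {P N0 : Subgroup G} {ψ : ↥(normalizer (P : Set G)) →* Equiv.Perm (Fin 6)}

/-- the elements of `C_G(N0)` acting trivially on `sl₂` -/
def D0 (I : E7I z F B) (N0 : Subgroup G) : Subgroup G where
  carrier := {g | (∀ n ∈ N0, g * n = n * g) ∧ ∃ M, I.R g 1 M}
  one_mem' := ⟨fun n _ => by rw [one_mul, mul_one], 1, R_one I⟩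
  mul_mem' := by
    rintro g h ⟨h1, M, hM⟩ ⟨h2, N, hN⟩
    refine ⟨fun n hn => by rw [mul_assoc, h2 n hn, ← mul_assoc, h1 n hn, mul_assoc], M * N, ?_⟩
    have := I.mul hM hN
    rwa [one_mul] at this
  inv_mem' := by
    rintro g ⟨h1, M, hM⟩
    obtain ⟨M', -, -, h⟩ := R_inv I hM
    refine ⟨fun n hn => ?_, M', by rwa [inv_one] at h⟩
    calc g⁻¹ * n = g⁻¹ * (n * g) * g⁻¹ := by group
      _ = n * g⁻¹ := by rw [← h1 n hn]; group

theorem D0_le (I : E7I z F B) (C : CB P N0 z s ψ) : D0 I N0 ≤ AA C := fun _ hg => comm_le_AA C hg.1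

theorem exists_comm4 : ∃ a b c d : Perm (Fin 6), Perm.sign a = 1 ∧ Perm.sign b = 1 ∧ Perm.sign c = 1 ∧
    Perm.sign d = 1 ∧
    (a * b * a⁻¹ * b⁻¹) * (c * d * c⁻¹ * d⁻¹) * (a * b * a⁻¹ * b⁻¹)⁻¹ * (c * d * c⁻¹ * d⁻¹)⁻¹ ≠ 1 :=
  ⟨c[0, 1, 2], c[2, 3, 4], c[1, 2, 3], c[3, 4, 0], by decide +kernel, by decide +kernel, by decide +kernel,
    by decide +kernel, by decide +kernel⟩

/-- **(0)** -/
theorem even0 (I : E7I z F B) (C : CB P N0 z s ψ) {n0 : G} (hn0 : n0 ∈ N0) {a0 : Matrix (Fin 2) (Fin 2) F}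
    {M0 : End F V} (h0 : I.R n0 a0 M0) (ha0 : ¬ ∃ c : F, a0 = c • 1) :
    ∀ π : Perm (Fin 6), Perm.sign π = 1 → ∃ g, ∃ hg : g ∈ AA C, g ∈ D0 I N0 ∧ psi C ⟨g, hg⟩ = π := by
  set D : Subgroup (Perm (Fin 6)) := ((D0 I N0).subgroupOf (AA C)).map (psi C) with hD
  have hR : ∀ g : G, (∀ n ∈ N0, g * n = n * g) → ∃ a M, I.R g a M := fun g hg => I.ex g (hg z (C.PN C.zP))
  have hn : ∀ a ∈ alternatingGroup (Fin 6), ∀ d ∈ D, a * d * a⁻¹ ∈ D := by
    rintro a ha _ ⟨g, hg, rfl⟩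
    obtain ⟨h, hhA, hhN, rfl⟩ := exists_even C (Perm.mem_alternatingGroup.1 ha)
    obtain ⟨hg1, M, hM⟩ := hg
    obtain ⟨b, N, hN⟩ := hR h hhN
    obtain ⟨L, hL⟩ := R_conj I hN hM
    rw [mul_one, Matrix.mul_nonsing_inv _ (isUnit_iff_ne_zero.2 (I.det hN))] at hL
    refine ⟨⟨h, hhA⟩ * g * ⟨h, hhA⟩⁻¹, ⟨fun n hn => ?_, L, hL⟩, by rw [map_mul, map_mul, map_inv]⟩
    change h * (g : G) * h⁻¹ * n = n * (h * (g : G) * h⁻¹)
    have h1 : h⁻¹ * n = n * h⁻¹ := by
      calc h⁻¹ * n = h⁻¹ * (n * h) * h⁻¹ := by group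
        _ = n * h⁻¹ := by rw [← hhN n hn]; group
    have hg2 : (g : G) * n = n * g := hg1 n hn
    rw [mul_assoc, h1, ← mul_assoc, mul_assoc h, hg2, ← mul_assoc, hhN n hn]
    simp only [mul_assoc]
  rcases dich6 D hn with h | h
  · exfalso
    obtain ⟨p1, p2, p3, p4, s1, s2, s3, s4, hne⟩ := exists_comm4
    obtain ⟨g1, A1, c1, e1⟩ := exists_even C s1
    obtain ⟨g2, A2, c2, e2⟩ := exists_even C s2
    obtain ⟨g3, A3, c3, e3⟩ := exists_even C s3
    obtain ⟨g4, A4, c4, e4⟩ := exists_even C s4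
    obtain ⟨a1, M1, h1⟩ := hR g1 c1
    obtain ⟨a2, M2, h2⟩ := hR g2 c2
    obtain ⟨a3, M3, h3⟩ := hR g3 c3
    obtain ⟨a4, M4, h4⟩ := hR g4 c4
    have d0 := I.det h0
    obtain ⟨⟨k1, hk1⟩, -⟩ := comm_data I h0 h1 (Or.inl (c1 n0 hn0).symm)
    obtain ⟨⟨k2, hk2⟩, -⟩ := comm_data I h0 h2 (Or.inl (c2 n0 hn0).symm)
    obtain ⟨⟨k3, hk3⟩, -⟩ := comm_data I h0 h3 (Or.inl (c3 n0 hn0).symm)
    obtain ⟨⟨k4, hk4⟩, -⟩ := comm_data I h0 h4 (Or.inl (c4 n0 hn0).symm)
    have q1 := cm_comm (I.det h1) (I.det h2) d0 hk1 hk2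
    have q2 := cm_comm (I.det h3) (I.det h4) d0 hk3 hk4
    have q3 := comm_comm ha0 q1 q2
    obtain ⟨L1, hL1⟩ := R_comm I h1 h2
    obtain ⟨L2, hL2⟩ := R_comm I h3 h4
    obtain ⟨L, hL⟩ := R_comm I hL1 hL2
    rw [q3, mul_assoc (a3 * a4 * a3⁻¹ * a4⁻¹), Matrix.mul_nonsing_inv _ (isUnit_iff_ne_zero.2 (I.det hL1)), mul_one,
      Matrix.mul_nonsing_inv _ (isUnit_iff_ne_zero.2 (I.det hL2))] at hL
    have cN : ∀ {x y : G}, (∀ n ∈ N0, x * n = n * x) → (∀ n ∈ N0, y * n = n * y) → ∀ n ∈ N0,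
        (x * y * x⁻¹ * y⁻¹) * n = n * (x * y * x⁻¹ * y⁻¹) := by
      intro x y hx hy
      have hx' : x ∈ centralizer (N0 : Set G) := mem_centralizer_iff.2 fun n hn => (hx n hn).symm
      have hy' : y ∈ centralizer (N0 : Set G) := mem_centralizer_iff.2 fun n hn => (hy n hn).symm
      have h3 := mul_mem (mul_mem (mul_mem hx' hy') (inv_mem hx')) (inv_mem hy')
      exact fun n hn => (mem_centralizer_iff.1 h3 n hn).symm
    have hcN := cN (cN c1 c2) (cN c3 c4)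
    let γ1 : ↥(AA C) := ⟨g1, A1⟩
    let γ2 : ↥(AA C) := ⟨g2, A2⟩
    let γ3 : ↥(AA C) := ⟨g3, A3⟩
    let γ4 : ↥(AA C) := ⟨g4, A4⟩
    let γ : ↥(AA C) := (γ1 * γ2 * γ1⁻¹ * γ2⁻¹) * (γ3 * γ4 * γ3⁻¹ * γ4⁻¹) * (γ1 * γ2 * γ1⁻¹ * γ2⁻¹)⁻¹ *
      (γ3 * γ4 * γ3⁻¹ * γ4⁻¹)⁻¹
    have hγ : psi C γ ∈ D := ⟨γ, ⟨hcN, L, hL⟩, rfl⟩
    have h5 := h _ hγ
    apply hne
    rw [← h5, ← e1, ← e2, ← e3, ← e4]
    simp only [γ, map_mul, map_inv, γ1, γ2, γ3, γ4]
  · intro π hπ
    obtain ⟨g, hg, hgπ⟩ := h (Perm.mem_alternatingGroup.2 hπ)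
    exact ⟨g, g.2, hg, hgπ⟩

/-- 2-elements of `A` commuting with `D0` are in `N0` -/
theorem a0_kill [Finite G] (I : E7I z F B) (C : CB P N0 z s ψ) {n0 : G} (hn0 : n0 ∈ N0) {a0 : Matrix (Fin 2) (Fin 2) F}
    {M0 : End F V} (h0 : I.R n0 a0 M0) (ha0 : ¬ ∃ c : F, a0 = c • 1) {g : G} (hg : g ∈ AA C)
    (h2 : ∃ k, g ^ 2 ^ k = 1) (hc : ∀ k ∈ D0 I N0, g * k = k * g ∨ g * k = z * (k * g)) : g ∈ N0 := by
  refine mem_N0 C hg h2 (K := (D0 I N0 : Set G)) (fun π hπ => ?_) hc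
  obtain ⟨k, hk, hk1, hk2⟩ := even0 I C hn0 h0 ha0 π hπ
  exact ⟨k, hk, hk1, hk2⟩

/-- 2-elements of `A₁` commuting with `N0` modulo `z` are in `N0` -/
theorem iota_mem [Finite G] (I : E7I z F B) (C : CB P N0 z s ψ) {n0 : G} (hn0 : n0 ∈ N0) {a0 : Matrix (Fin 2) (Fin 2) F}
    {M0 : End F V} (h0 : I.R n0 a0 M0) (ha0 : ¬ ∃ c : F, a0 = c • 1) (x : Matrix.SpecialLinearGroup (Fin 2) F)
    (h2 : ∃ k, x ^ 2 ^ k = 1)
    (hc : ∀ n ∈ N0, ∀ a M, I.R n a M → ∃ c : F, (a : Matrix (Fin 2) (Fin 2) F) * x = c • ((x : Matrix (Fin 2) (Fin 2) F) * a)) :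
    I.ι x ∈ N0 := by
  refine a0_kill I C hn0 h0 ha0 ?_ ?_ ?_
  · rw [mem_AA, Cfsg.Agent.H738.C3.act_iff C]
    intro n hn
    obtain ⟨a, M, hM⟩ := I.ex n (C.z_cen n (C.NH hn))
    obtain ⟨c, h⟩ := hc n hn a M hM
    exact comm_or I (c := c) (d := 1) (I.Rι x) hM h (by rw [mul_one, one_mul, one_smul])
  · obtain ⟨k, hk⟩ := h2
    exact ⟨k, by rw [← map_pow, hk, map_one]⟩
  · rintro k ⟨-, M, hM⟩
    exact comm_or I (c := 1) (d := 1) (I.Rι x) hM (by rw [mul_one, one_mul, one_smul]) (by rw [mul_one, one_mul, one_smul])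

end cb

end Cfsg.Agent.H314.Co3.E7
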